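import Mathlib
import Cfsg.Agent.Base
import Cfsg.Agent.Lib.Core.GrpBasic
import Cfsg.Agent.Lib.Core.HallSZ
import Cfsg.Agent.Lib.QT.WrTab

/-! A copy of `D₈ ≀ C₂` (coded by `0, …, 127`) inside a group, and the configuration coming from a
subgroup `S₄ ≀ C₂` containing a Sylow `2`-subgroup. -/

set_option autoImplicit false

namespace H90.Wr
open H54 Subgroup
open scoped Pointwise

variable {G : Type*} [Group G]

structure Pre (G : Type*) [Group G] where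
  ψ : ℕ → G
  mul : ∀ a < 128, ∀ b < 128, ψ (m a b) = ψ a * ψ b
  inj0 : ∀ a < 128, ψ a = 1 → a = 0

theorem I_spec : ∀ a ∈ I, a < 128 ∧ m a a = 0 ∧ a ≠ 0 := by decide +kernel
theorem m_zero : ∀ a < 128, m a 0 = a ∧ m 0 a = a := by decide +kernel
theorem cm_spec : ∀ a < 128, ∀ b < 128, cm a b → m a b = m b a := by decide +kernel
theorem cj_lt (a b : ℕ) : cj a b < 128 := m_lt _ _
theorem sq_eq (a b : ℕ) : sq a b = m (m a b) (m a b) := rfl
theorem ev_eq (a b c d e f n : ℕ) : ev a b c d e f n =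
    m (m (m (pw b n 1) (pw a n 0)) (pw c n 2)) (m (m (pw e n 4) (pw d n 3)) (pw f n 5)) := rfl

theorem ev_mem {p : ℕ → Prop} (hp : Cl p) {a b c d e f : ℕ} (ha : a < 128 ∧ p a) (hb : b < 128 ∧ p b)
    (hc : c < 128 ∧ p c) (hd : d < 128 ∧ p d) (he : e < 128 ∧ p e) (hf : f < 128 ∧ p f) (n : ℕ) :
    p (ev a b c d e f n) := by
  have h1 : ∀ {a : ℕ} (i : ℕ), a < 128 ∧ p a → pw a n i < 128 ∧ p (pw a n i) := fun i h => by
    unfold pw; split_ifs; exacts [h, ⟨by norm_num, hp.1⟩]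
  have h2 : ∀ {a b : ℕ}, a < 128 ∧ p a → b < 128 ∧ p b → m a b < 128 ∧ p (m a b) := fun h h' =>
    ⟨m_lt _ _, (hp.2 _ h.1 h.2).2 _ h'.1 h'.2⟩
  exact (h2 (h2 (h2 (h1 1 hb) (h1 0 ha)) (h1 2 hc)) (h2 (h2 (h1 4 he) (h1 3 hd)) (h1 5 hf))).2

namespace Pre
variable (P : Pre G)

theorem zero : P.ψ 0 = 1 := by
  have := P.mul 0 (by norm_num) 0 (by norm_num)
  rw [(m_zero 0 (by norm_num)).1] at this
  exact left_eq_mul.1 this

theorem inv {a : ℕ} (ha : a < 128) : P.ψ (iv a) = (P.ψ a)⁻¹ :=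
  eq_inv_of_mul_eq_one_right (by rw [← P.mul a ha _ (iv_lt a), (m_iv a ha).1, P.zero])

theorem inj {a b : ℕ} (ha : a < 128) (hb : b < 128) (h : P.ψ a = P.ψ b) : a = b :=
  (m_cancel a ha b hb).1 (P.inj0 _ (m_lt _ _) (by rw [P.mul a ha _ (iv_lt b), P.inv hb, h, mul_inv_cancel]))

theorem ne {a : ℕ} (ha : a < 128 := by norm_num) (h : a ≠ 0 := by norm_num) : P.ψ a ≠ 1 :=
  fun e => h (P.inj0 a ha e)

theorem mul' (a b c : ℕ) (h : a < 128 ∧ b < 128 ∧ m a b = c := by decide +kernel) :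
    P.ψ a * P.ψ b = P.ψ c := by rw [← P.mul a h.1 b h.2.1, h.2.2]

theorem commute {a b : ℕ} (ha : a < 128) (hb : b < 128) : Commute (P.ψ a) (P.ψ b) ↔ cm a b := by
  rw [Commute, SemiconjBy, ← P.mul a ha b hb, ← P.mul b hb a ha]
  exact ⟨fun h => (m_cancel a ha b hb).2 (P.inj (m_lt _ _) (m_lt _ _) h),
    fun h => by rw [cm_spec a ha b hb h]⟩

theorem orderOf_I {a : ℕ} (ha : a ∈ I) : orderOf (P.ψ a) = 2 := by
  obtain ⟨h1, h2, h3⟩ := I_spec a ha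
  exact orderOf_eq_prime (by rw [pow_two, ← P.mul a h1 a h1, h2, P.zero]) (P.ne h1 h3)

/-- `g` conjugates the element with code `a` to the element with code `b`. -/
structure F (g : G) (a b : ℕ) : Prop where
  la : a < 128
  lb : b < 128
  eq : g * P.ψ a * g⁻¹ = P.ψ b

def sub (p : ℕ → Prop) (h : Cl p) : Subgroup G where
  carrier := {g | ∃ n < 128, p n ∧ P.ψ n = g}
  one_mem' := ⟨0, by norm_num, h.1, P.zero⟩
  mul_mem' := by
    rintro _ _ ⟨a, ha, pa, rfl⟩ ⟨b, hb, pb, rfl⟩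
    exact ⟨_, m_lt a b, (h.2 a ha pa).2 b hb pb, P.mul a ha b hb⟩
  inv_mem' := by
    rintro _ ⟨a, ha, pa, rfl⟩
    exact ⟨_, iv_lt a, (h.2 a ha pa).1, P.inv ha⟩

variable {P} {g h : G} {a b c d : ℕ} {p : ℕ → Prop} {hp : Cl p}

theorem mem_sub : g ∈ P.sub p hp ↔ ∃ n < 128, p n ∧ P.ψ n = g := Iff.rfl

theorem mem_sub' (ha : a < 128) : P.ψ a ∈ P.sub p hp ↔ p a :=
  ⟨fun ⟨_, hn, pn, e⟩ => P.inj hn ha e ▸ pn, fun h => ⟨a, ha, h, rfl⟩⟩

theorem card_sub [DecidablePred p] : Nat.card (P.sub p hp) = ((List.range 128).filter p).length := by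
  have : (P.sub p hp : Set G) = P.ψ '' ((Finset.range 128).filter p : Finset ℕ) := by
    ext g; simp [mem_sub, and_assoc]
  rw [show Nat.card (P.sub p hp) = (P.sub p hp : Set G).ncard from rfl, this, Set.InjOn.ncard_image,
    Set.ncard_coe_finset]
  · rfl
  · intro a ha b hb
    simp only [Finset.coe_filter, Finset.mem_range, Set.mem_ofPred_eq] at ha hb
    exact P.inj ha.1 hb.1

theorem F.zero (g : G) : P.F g 0 0 := ⟨by norm_num, by norm_num, by simp [P.zero]⟩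
theorem F.one (ha : a < 128) : P.F 1 a a := ⟨ha, ha, by simp⟩
theorem F.mul (h1 : P.F g a b) (h2 : P.F g c d) : P.F g (m a c) (m b d) :=
  ⟨m_lt _ _, m_lt _ _, by rw [P.mul _ h1.la _ h2.la, P.mul _ h1.lb _ h2.lb, ← h1.eq, ← h2.eq]; group⟩
theorem F.cast (h1 : P.F g a b) (e : a = c ∧ b = d := by decide +kernel) : P.F g c d :=
  e.1 ▸ e.2 ▸ h1
theorem F.iv (h1 : P.F g a b) : P.F g (iv a) (iv b) :=
  ⟨iv_lt _, iv_lt _, by rw [P.inv h1.la, P.inv h1.lb, ← h1.eq]; group⟩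
theorem F.uniq (h1 : P.F g a b) (h2 : P.F g a c) : b = c := P.inj h1.lb h2.lb (h1.eq.symm.trans h2.eq)
theorem F.symm (h1 : P.F g a b) : P.F g⁻¹ b a := ⟨h1.lb, h1.la, by rw [← h1.eq]; group⟩
theorem F.inj (h1 : P.F g a c) (h2 : P.F g b c) : a = b := h1.symm.uniq h2.symm
theorem F.ne (h1 : P.F g a b) (h2 : P.F g c d) (e : a ≠ c := by decide +kernel) : b ≠ d :=
  fun e' => e (h1.inj (e' ▸ h2))
theorem F.trans (h1 : P.F g a b) (h2 : P.F h b c) : P.F (h * g) a c :=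
  ⟨h1.la, h2.lb, by rw [← h2.eq, ← h1.eq]; group⟩
theorem F.cj (ha : a < 128) (hb : b < 128) : P.F (P.ψ a) b (cj a b) :=
  ⟨hb, cj_lt _ _, by rw [Wr.cj, P.mul _ (m_lt _ _) _ (iv_lt _), P.mul _ ha _ hb, P.inv ha]⟩
theorem F.cj' (a b c : ℕ) (e : a < 128 ∧ b < 128 ∧ Wr.cj a b = c := by decide +kernel) :
    P.F (P.ψ a) b c := e.2.2 ▸ F.cj e.1 e.2.1
theorem F.conj (h1 : P.F g a b) (h2 : P.F h a c) (h3 : P.F h b d) : P.F (h * g * h⁻¹) c d :=
  mul_assoc h g h⁻¹ ▸ (h2.symm.trans h1).trans h3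
theorem F.comm (h1 : P.F g a b) (h2 : P.F g c d) (e : cm a c := by decide +kernel) : cm b d := by
  rw [← P.commute h1.lb h2.lb, ← h1.eq, ← h2.eq]
  exact ((P.commute h1.la h2.la).2 e).map (MulAut.conj g)
theorem F.sq (h1 : P.F g a b) (h2 : P.F g c d) : P.F g (sq a c) (sq b d) := (h1.mul h2).mul (h1.mul h2)
theorem F.sq0 (h1 : P.F g a b) : m a a = 0 ↔ m b b = 0 :=
  ⟨fun e => (e ▸ h1.mul h1).uniq (F.zero g), fun e => (e ▸ h1.mul h1).inj (F.zero g)⟩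
theorem F.mem_I (h1 : P.F g a b) (e : a ∈ I := by decide +kernel) : b ∈ I :=
  (m_iv b h1.lb).2 (h1.sq0.1 (I_spec a e).2.1) (h1.ne (F.zero g) (I_spec a e).2.2)
theorem F.fix (ha : a < 128) : P.F g a a ↔ Commute g (P.ψ a) :=
  ⟨fun h => mul_inv_eq_iff_eq_mul.1 h.eq, fun h => ⟨ha, ha, mul_inv_eq_iff_eq_mul.2 h⟩⟩
theorem F.commute (h1 : P.F g a a) : Commute g (P.ψ a) := (F.fix h1.la).1 h1

theorem F.ev {e f a' b' c' d' e' f' : ℕ} (h1 : P.F g a a') (h2 : P.F g b b') (h3 : P.F g c c')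
    (h4 : P.F g d d') (h5 : P.F g e e') (h6 : P.F g f f') (n : ℕ) :
    P.F g (ev a b c d e f n) (ev a' b' c' d' e' f' n) := by
  have h : ∀ {a a' : ℕ} (i : ℕ), P.F g a a' → P.F g (pw a n i) (pw a' n i) := fun i h => by
    unfold pw; split_ifs; exacts [h, F.zero g]
  exact (((h 1 h2).mul (h 0 h1)).mul (h 2 h3)).mul (((h 4 h5).mul (h 3 h4)).mul (h 5 h6))

theorem F.iter {f : ℕ → ℕ} (hf : ∀ n, p n → P.F g n (f n) ∧ p (f n)) (k : ℕ) {n : ℕ} (hn : p n) :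
    P.F (g ^ k) n (f^[k] n) := by
  induction k generalizing n with
  | zero => simpa using F.one (hf n hn).1.la
  | succ k ih => simpa [pow_succ] using (hf n hn).1.trans (ih (hf n hn).2)

theorem mem_norm [Finite G] (h : ∀ n < 128, p n → ∃ n', p n' ∧ P.F g n n') :
    g ∈ normalizer (P.sub p hp : Set G) := by
  refine mem_normalizer_fintype ?_
  rintro _ ⟨n, hn, pn, rfl⟩
  obtain ⟨n', pn', e⟩ := h n hn pn
  exact ⟨n', e.lb, pn', e.eq.symm⟩

theorem of_norm (hg : g ∈ normalizer (P.sub p hp : Set G)) (ha : a < 128) (pa : p a) :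
    ∃ b, p b ∧ P.F g a b :=
  let ⟨b, hb, pb, e⟩ := (mem_normalizer_iff.1 hg _).1 ((mem_sub' ha).2 pa); ⟨b, pb, ha, hb, e.symm⟩

theorem mem_cent : g ∈ centralizer (P.sub p hp : Set G) ↔ ∀ n < 128, p n → P.F g n n := by
  rw [mem_centralizer_iff]
  exact ⟨fun h n hn pn => (F.fix hn).2 (h _ ((mem_sub' hn).2 pn)).symm,
    fun h _ ⟨n, hn, pn, e⟩ => e ▸ (h n hn pn).commute.symm⟩

end Pre

/-- The configuration: `T = D₈ ≀ C₂` and an element `x` of order `3` of the first factor `S₄`. -/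
structure Cfg (T : Subgroup G) extends Pre G where
  mem : ∀ g, g ∈ T ↔ ∃ n < 128, ψ n = g
  x : G
  x3 : x ^ 3 = 1
  x1 : x * ψ 1 * x⁻¹ = ψ 4
  x4 : x * ψ 4 * x⁻¹ = ψ 5
  x8 : x * ψ 8 * x⁻¹ = ψ 8
  x16 : x * ψ 16 * x⁻¹ = ψ 16
  x2 : ψ 2 * x * (ψ 2)⁻¹ = x⁻¹
  x' : G
  hx' : x' = ψ 64 * x * (ψ 64)⁻¹
  xx : x * x' = x' * x
  nd : [1, ψ 16, ψ 48, x' * ψ 16 * x'⁻¹, x' * ψ 48 * x'⁻¹, x'⁻¹ * ψ 16 * x', x'⁻¹ * ψ 48 * x'].Nodup
  nc : ψ 16 * (x' * ψ 16 * x'⁻¹) ≠ x' * ψ 16 * x'⁻¹ * ψ 16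

def pm (n : ℕ) : Equiv.Perm (Fin 8) where
  toFun i := ⟨act (n % 128) i, act_lt _ _⟩
  invFun i := ⟨act (iv (n % 128)) i, act_lt _ _⟩
  left_inv i := Fin.ext (act_iv _ (Nat.mod_lt _ (by norm_num)) _ i.2).1
  right_inv i := Fin.ext (act_iv _ (Nat.mod_lt _ (by norm_num)) _ i.2).2

theorem pm_apply {n : ℕ} (hn : n < 128) (i : Fin 8) : (pm n i : ℕ) = act n i := by
  change act (n % 128) i = _; rw [Nat.mod_eq_of_lt hn]

def θ : Equiv.Perm (Fin 8) ≃* Equiv.Perm (Fin 4 ⊕ Fin 4) :=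
  (finSumFinEquiv (m := 4) (n := 4)).symm.permCongrHom

theorem mem_W {σ : Equiv.Perm (Fin 8)}
    (h : (∀ i, (σ i : ℕ) / 4 = i / 4) ∨ ∀ i, (σ i : ℕ) / 4 = 1 - i / 4) :
    θ σ ∈ Cfsg.blockStabilizerS4wr2 := by
  let e : Fin 4 ⊕ Fin 4 ≃ Fin 8 := finSumFinEquiv (m := 4) (n := 4)
  let B : ℕ → Set (Fin 4 ⊕ Fin 4) := fun k => {a | (e a : ℕ) / 4 = k}
  have h0 : Set.range (Sum.inl : Fin 4 → Fin 4 ⊕ Fin 4) = B 0 := by
    ext a; revert a; simp only [B, Set.mem_ofPred_eq, Set.mem_range]; decide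
  have h1 : Set.range (Sum.inr : Fin 4 → Fin 4 ⊕ Fin 4) = B 1 := by
    ext a; revert a; simp only [B, Set.mem_ofPred_eq, Set.mem_range]; decide
  have key : ∀ k l, (∀ i, (σ i : ℕ) / 4 = l ↔ (i : ℕ) / 4 = k) → θ σ • B k = B l := fun k l hh => by
    ext a
    rw [Set.mem_smul_set_iff_inv_smul_mem]
    have := hh (σ⁻¹ (e a))
    rw [Equiv.Perm.inv_def, Equiv.apply_symm_apply] at this
    simp only [B, Set.mem_ofPred_eq, this, ← map_inv]
    simp [θ, e]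
  rw [Cfsg.blockStabilizerS4wr2, MulAction.mem_stabilizer_iff, Set.smul_set_insert,
    Set.smul_set_singleton, h0, h1]
  rcases h with h | h
  · rw [key 0 0 (fun i => by rw [h]), key 1 1 (fun i => by rw [h])]
  · rw [key 0 1 (fun i => by rw [h]; omega), key 1 0 (fun i => by rw [h]; omega), Set.pair_comm]

def W : Subgroup (Equiv.Perm (Fin 8)) := Cfsg.blockStabilizerS4wr2.comap θ.toMonoidHom

def pW (n : ℕ) : W := ⟨pm n, mem_W <| by
  have := act_blk (n % 128) (Nat.mod_lt _ (by norm_num))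
  exact this.imp (fun h i => h i i.2) fun h i => h i i.2⟩

def xW : W := ⟨Equiv.swap 0 1 * Equiv.swap 1 2, mem_W (by decide)⟩

def preW (φ : W →* G) (hφ : Function.Injective φ) : Pre G where
  ψ n := φ (pW n)
  mul a ha b hb := by
    rw [← map_mul]; congr 1; ext i
    change (pm (m a b) i : ℕ) = pm a (pm b i)
    rw [pm_apply (m_lt _ _), pm_apply ha, pm_apply hb, act_m a ha b hb i i.2]
  inj0 a ha h := act_inj a ha fun i hi => by
    have : pm a = 1 := congrArg Subtype.val (hφ (h.trans (map_one φ).symm))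
    rw [← pm_apply ha ⟨i, hi⟩, this]; rfl

theorem exists_cfg [Finite G] (T : Sylow 2 G) {M : Subgroup G} (hT : (T : Subgroup G) ≤ M)
    (e : M ≃* Cfsg.blockStabilizerS4wr2) : Nonempty (Cfg (T : Subgroup G)) := by
  have hall : Cl fun _ => True := ⟨trivial, fun _ _ _ => ⟨trivial, fun _ _ _ => trivial⟩⟩
  have hc : ∀ P : Pre G, Nat.card (P.sub _ hall) = 2 ^ 7 := fun P => by rw [Pre.card_sub]; decide +kernel
  let φ₀ : W →* G := M.subtype.comp (e.symm.toMonoidHom.comp (θ.toMonoidHom.subgroupComap _))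
  have h₀ : Function.Injective φ₀ := fun a b h =>
    Subtype.ext (θ.injective (congrArg Subtype.val (e.symm.injective (Subtype.ext h))))
  obtain ⟨t, -, ht⟩ := H3.exists_conj_le_of_isPGroup_of_not_dvd_relIndex (K := (T : Subgroup G))
    (IsPGroup.of_card (hc (preW φ₀ h₀))) le_top (by simpa using T.not_dvd_index)
  let φ : W →* G := (MulAut.conj t).toMonoidHom.comp φ₀
  have hφ : Function.Injective φ := (MulAut.conj t).injective.comp h₀
  have hle : (preW φ hφ).sub _ hall ≤ T := by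
    rintro _ ⟨n, hn, -, rfl⟩
    exact ht (H1.conj_mem_conj_smul ⟨n, hn, trivial, rfl⟩)
  have hcard : Nat.card (T : Subgroup G) ≤ 2 ^ 7 := by
    obtain ⟨k, hk⟩ := IsPGroup.iff_card.1 T.isPGroup'
    have h1 := ((card_dvd_of_le hT).trans (Nat.card_congr e.toEquiv).dvd).trans
      (card_subgroup_dvd_card _)
    rw [Nat.card_perm, hk] at h1
    rw [hk]
    refine Nat.pow_le_pow_right (by norm_num) (not_lt.1 fun h => ?_)
    have := (pow_dvd_pow 2 h).trans h1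
    revert this; simp; decide
  have heq := eq_of_le_of_card_ge hle (by rwa [hc])
  have hm : ∀ {a b : W}, (a : Equiv.Perm (Fin 8)) = b → φ a = φ b := fun h => congrArg φ (Subtype.ext h)
  refine ⟨{ preW φ hφ with
    mem := fun g => by rw [← heq, Pre.mem_sub]; simp
    x := φ xW
    x' := φ (pW 64 * xW * (pW 64)⁻¹)
    hx' := by simp [preW]
    x3 := ?_, x1 := ?_, x4 := ?_, x8 := ?_, x16 := ?_, x2 := ?_, xx := ?_, nd := ?_, nc := ?_ }⟩
  iterate 7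
    simp only [preW, ← map_mul, ← map_inv, ← map_pow]
    first | exact hm (by decide +kernel) | exact (hm (b := 1) (by decide +kernel)).trans (map_one φ)
  · simp only [preW, ← map_mul, ← map_inv]
    rw [← map_one φ]
    simp only [← List.map_singleton (f := φ), ← List.map_cons]
    refine List.Nodup.map hφ (List.Nodup.of_map Subtype.val ?_)
    decide +kernel
  · simp only [preW, ← map_mul, ← map_inv]
    exact fun h => absurd (congrArg Subtype.val (hφ h)) (by decide +kernel)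

theorem force_WrModel : (@Pre.sub.eq_1 = @Pre.sub.eq_1) ∧ (@pm.eq_1 = @pm.eq_1) ∧ (@θ.eq_1 = @θ.eq_1) ∧
    (@W.eq_1 = @W.eq_1) ∧ (@pW.eq_1 = @pW.eq_1) ∧ (@xW.eq_1 = @xW.eq_1) ∧ @preW.eq_1 = @preW.eq_1 :=
  ⟨rfl, rfl, rfl, rfl, rfl, rfl, rfl⟩

end H90.Wr
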