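import Mathlib
import Cfsg.Agent.Base
import Cfsg.Agent.Lib.Core.Coprime
import Cfsg.Agent.Lib.Core.Fitting
import Cfsg.Agent.Lib.QT.WrModel

/-! Local analysis in a group of even characteristic with Sylow `2`-subgroup `D₈ ≀ C₂`. -/

set_option autoImplicit false
set_option linter.unusedSectionVars false

namespace H90.Wr
open H54 Subgroup Cfsg Pre
open scoped Pointwise

variable {G : Type*} [Group G]

abbrev Mk (k n : ℕ) : Prop := n &&& k = 0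
theorem clM : ∀ k ∈ [73, 74, 81, 82, 90, 122, 71], Cl (Mk k) := by decide +kernel
theorem clJ : Cl (· < 64) := by decide +kernel
theorem clP : Cl par := by decide +kernel
theorem mk_cj : ∀ k ∈ [73, 74, 81, 82, 90], ∀ j < 64, ∀ n < 128, Mk k n → Mk k (cj j n) := by
  decide +kernel
theorem cj_T : ∀ k < 128, cm k 36 ∧ cj k 4 ≠ 36 ∧ (Mk 74 (cj k 1) → k < 64) ∧
    (k < 64 → cm k 4 ∧ Mk 74 (m k k)) ∧ (cm k 1 → cm k 4 → Mk 66 k ∧ k < 64) ∧
    (Mk 66 k → cm k 16 → Mk 74 k) ∧ ∀ n < 64, cj k n < 64 ∧ (Mk 73 (cj k n) ↔ Mk 73 n) := by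
  decide +kernel
theorem mk_ev : ∀ n < 128, (Mk 90 n → ev 1 0 4 0 0 32 n = n) ∧ (Mk 74 n → ev 1 0 4 0 16 32 n = n) ∧
    (Mk 73 n → n < 64 ∧ ev 0 2 4 0 16 32 n = n) := by decide +kernel
theorem a2_tab : ∀ a < 128, Mk 66 a → (Mk 90 a ↔ a / 8 % 4 = 0) ∧ (m a a = 0 ↔ a / 8 % 4 ≠ 3) ∧
    ∀ b < 128, Mk 66 b → (Mk 90 (m a (iv b)) ↔ a / 8 % 4 = b / 8 % 4) ∧ (a / 8 % 4 = b / 8 % 4 →
      Mk 90 (m (iv a) b) ∧ m a (m (iv a) b) = b ∧ m b (m (iv a) b) = a) := by decide +kernel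

theorem mem_of_pow [Finite G] {K : Subgroup G} {g : G} {k : ℕ} (h : Odd (orderOf g))
    (hk : g ^ 2 ^ k ∈ K) : g ∈ K :=
  zpowers_le.2 hk (mem_zpowers_pow_iff.2 (Nat.Coprime.pow_left k (Nat.coprime_two_left.2 h)))

theorem isP_zpowers {g : G} {k : ℕ} (h : g ^ 2 ^ k = 1) : IsPGroup 2 (zpowers g) :=
  let ⟨_, _, e⟩ := (Nat.dvd_prime_pow Nat.prime_two).1 (orderOf_dvd_of_pow_eq_one h)
  .of_card ((Nat.card_zpowers g).trans e)

namespace Pre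
variable (P : Pre G)

abbrev K (k : ℕ) (h : k ∈ [73, 74, 81, 82, 90, 122, 71] := by decide) : Subgroup G :=
  P.sub (Mk k) (clM k h)
abbrev J : Subgroup G := P.sub (· < 64) clJ

variable {P} {g : G}

theorem fixB (h1 : P.F g 1 1) (h4 : P.F g 4 4) (h32 : P.F g 32 32) : g ∈ centralizer (P.K 90 : Set G) :=
  mem_cent.2 fun n hn h => (mk_ev n hn).1 h ▸ h1.ev (.zero g) h4 (.zero g) (.zero g) h32 n

theorem J_le_norm [Finite G] (k : ℕ) (h : k ∈ [73, 74, 81, 82, 90])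
    (h' : k ∈ [73, 74, 81, 82, 90, 122, 71]) : P.J ≤ normalizer (P.K k h' : Set G) := by
  rintro _ ⟨j, hj, hj', rfl⟩
  exact mem_norm fun n hn pn => ⟨_, mk_cj k h j hj' n hn pn, .cj hj hn⟩

end Pre

namespace Cfg
variable [Finite G] {T : Sylow 2 G} (c : Cfg (T : Subgroup G)) {g : G} {a b n : ℕ}

theorem memT (hn : n < 128) : c.ψ n ∈ (T : Subgroup G) := (c.mem _).2 ⟨n, hn, rfl⟩

theorem of (ha : a < 128) (h : g * c.ψ a * g⁻¹ ∈ (T : Subgroup G)) : ∃ b, c.F g a b :=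
  let ⟨b, hb, e⟩ := (c.mem _).1 h; ⟨b, ha, hb, e.symm⟩

theorem sub_le {p : ℕ → Prop} {hp : Cl p} : c.sub p hp ≤ T := fun _ ⟨_, hn, _, e⟩ => e ▸ c.memT hn

theorem isP {p : ℕ → Prop} {hp : Cl p} : IsPGroup 2 (c.sub p hp) := T.isPGroup'.to_le c.sub_le

theorem T_le {H : Subgroup G} (h : ∀ n < 128, c.ψ n ∈ H) : (T : Subgroup G) ≤ H := fun g hg =>
  let ⟨n, hn, e⟩ := (c.mem g).1 hg; e ▸ h n hn

omit c in
theorem syl {H S : Subgroup G} (hT : (T : Subgroup G) ≤ H) (hS : IsPGroup 2 S) (h : S ≤ H) :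
    ∃ k ∈ H, ∀ s ∈ S, k * s * k⁻¹ ∈ (T : Subgroup G) :=
  let ⟨k, hk, e⟩ := H3.exists_conj_le_of_isPGroup_of_not_dvd_relIndex (K := (T : Subgroup G)) hS h
    fun h => T.not_dvd_index (h.trans (relIndex_dvd_index_of_le hT))
  ⟨k, hk, fun _ hs => e (H1.conj_mem_conj_smul hs)⟩

theorem autJ' (h : ∀ n < 64, g * c.ψ n * g⁻¹ ∈ (T : Subgroup G)) :
    g ∈ normalizer (c.J : Set G) ∧ g ^ 2 ^ 3 ∈ centralizer (c.J : Set G) := by
  obtain ⟨a, ha⟩ := c.of (by norm_num) (h 1 (by norm_num))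
  obtain ⟨b, hb⟩ := c.of (by norm_num) (h 2 (by norm_num))
  obtain ⟨d, hd⟩ := c.of (by norm_num) (h 8 (by norm_num))
  obtain ⟨e, he⟩ := c.of (by norm_num) (h 16 (by norm_num))
  have h4 : c.F g 4 (sq a b) := (ha.sq hb).cast ⟨by decide +kernel, rfl⟩
  have h32 : c.F g 32 (sq d e) := (hd.sq he).cast ⟨by decide +kernel, rfl⟩
  obtain ⟨⟨la, lb, ld, le⟩, h8⟩ := autJ a ha.mem_I b hb.mem_I (h4.ne (.zero g)) d hd.mem_I (ha.comm hd)
    (hb.comm hd) e he.mem_I (ha.comm he) (hb.comm he) (h32.ne (.zero g)) (h4.ne h32)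
  have hs : ∀ {a b : ℕ}, a < 64 → b < 64 → sq a b < 128 ∧ sq a b < 64 := fun {a b} ha hb =>
    ⟨m_lt _ _, (m_lt64 _ (m_lt64 a ha b hb).1 _ (m_lt64 a ha b hb).1).1⟩
  have hf : ∀ n, n < 64 → c.F g n (ev a b (sq a b) d e (sq d e) n) ∧
      ev a b (sq a b) d e (sq d e) n < 64 := fun n hn =>
    ⟨(ha.ev hb h4 hd he h32 n).cast ⟨(ev_id n hn).1, rfl⟩,
      ev_mem clJ ⟨ha.lb, la⟩ ⟨hb.lb, lb⟩ (hs la lb) ⟨hd.lb, ld⟩ ⟨he.lb, le⟩ (hs ld le) n⟩
  have hx : ∀ x ∈ [1, 2, 8, 16], c.F (g ^ 8) x x := fun x hx =>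
    (F.iter (p := (· < 64)) hf 8 (by revert x; decide)).cast ⟨rfl, h8 x hx⟩
  have h1 := hx 1 (by simp); have h2 := hx 2 (by simp); have h3 := hx 8 (by simp)
  have h5 := hx 16 (by simp)
  exact ⟨mem_norm fun n _ hn => ⟨_, (hf n hn).2, (hf n hn).1⟩, mem_cent.2 fun n _ hn =>
    (h1.ev h2 (h1.sq h2).cast h3 h5 (h3.sq h5).cast n).cast ⟨(ev_id n hn).1, (ev_id n hn).1⟩⟩

/-- `J` is weakly closed and `N(J) = T C(J)`. -/
theorem LJ (h : ∀ n < 64, g * c.ψ n * g⁻¹ ∈ (T : Subgroup G)) :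
    ∃ k < 128, ∀ n < 64, c.F g n (cj k n) := by
  have hT : (T : Subgroup G) ≤ normalizer (c.J : Set G) := c.T_le fun k hk =>
    mem_norm fun n hn hn' => ⟨_, ((cj_T k hk).2.2.2.2.2.2 n hn').1, .cj hk hn⟩
  have : ((T : Subgroup G) ⊔ centralizer (c.J : Set G)).subgroupOf (normalizer (c.J : Set G)) = ⊤ := by
    refine H1.eq_top_of_forall_sylow_le fun p hp => ?_
    have := Fact.mk hp
    obtain rfl | h2 := eq_or_ne p 2
    · exact ⟨T.subtype hT, fun x hx => mem_sup_left hx⟩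
    · refine ⟨default, fun x hx => mem_sup_right (mem_of_pow (k := 3) ?_ (c.autJ' fun n hn =>
        c.sub_le ((mem_normalizer_iff.1 x.2 _).1 ((mem_sub' (by omega)).2 hn))).2)⟩
      obtain ⟨k, hk⟩ := IsPGroup.iff_orderOf.1 (default : Sylow p _).isPGroup' ⟨x, hx⟩
      rw [orderOf_mk, ← orderOf_coe] at hk
      exact hk ▸ (hp.odd_of_ne_two h2).pow
  obtain ⟨t, ht, k, hk, rfl⟩ := (H2.mem_sup_iff_of_le_normalizer' (H2.le_normalizer_centralizer hT)).1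
    (subgroupOf_eq_top.1 this (c.autJ' h).1)
  obtain ⟨j, hj, rfl⟩ := (c.mem t).1 ht
  exact ⟨j, hj, fun n hn => (mem_cent.1 hk n (by omega) hn).trans (.cj hj (by omega))⟩

theorem LJ2 {H : Subgroup G} (hT : (T : Subgroup G) ≤ H) (h : ∀ n < 64, g * c.ψ n * g⁻¹ ∈ H) :
    ∃ h ∈ H, ∃ k < 128, ∀ n < 64, c.F (h * g) n (cj k n) := by
  obtain ⟨k, hk, e⟩ := syl hT (S := MulAut.conj g • c.J) (c.isP.map _) (by
    rintro _ ⟨_, ⟨n, -, hn, rfl⟩, rfl⟩; exact h n hn)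
  refine ⟨k, hk, c.LJ fun n hn => ?_⟩
  simpa [mul_assoc] using e _ (H1.conj_mem_conj_smul ((mem_sub' (by omega)).2 hn))

theorem overJ {S : Subgroup G} (hS : IsPGroup 2 S) (h : c.J ≤ S) :
    ∃ k, (∀ n < 64, c.F k n n) ∧ ∀ s ∈ S, k * s * k⁻¹ ∈ (T : Subgroup G) := by
  obtain ⟨k, -, e⟩ := syl (T := T) le_top hS le_top
  obtain ⟨j, hj, f⟩ := c.LJ fun n hn => e _ (h ((mem_sub' (by omega)).2 hn))
  refine ⟨(c.ψ j)⁻¹ * k, fun n hn => (f n hn).trans (F.cj hj (by omega)).symm, fun s hs => ?_⟩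
  simpa [mul_assoc] using mul_mem (mul_mem (inv_mem (c.memT hj)) (e s hs)) (c.memT hj)

theorem not_z_t (h : c.F g 4 36) : False := by
  obtain ⟨k, hk, j, hj, e⟩ := c.LJ2 (g := g) (H := centralizer {c.ψ 36})
    (c.T_le fun n hn => mem_centralizer_singleton_iff.2 ((c.commute hn (by norm_num)).2 (cj_T n hn).1))
    fun n hn => mem_centralizer_singleton_iff.2 (h.eq ▸ (((c.commute (by omega) h.la).2
      ((cj_T n (by omega)).2.2.2.1 hn).1).map (MulAut.conj g)))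
  exact (cj_T j hj).2.1 ((e 4 (by norm_num)).uniq
    (h.trans ((F.fix h.lb).2 (mem_centralizer_singleton_iff.1 hk))))

theorem a2_of (hn : n < 128) (h : c.ψ n ∈ centralizer (c.K 90 : Set G)) : Mk 66 n ∧ n < 64 :=
  (cj_T n hn).2.2.2.2.1 ((c.commute hn (by norm_num)).1 (mem_cent.1 h 1 (by norm_num) rfl).commute)
    ((c.commute hn (by norm_num)).1 (mem_cent.1 h 4 (by norm_num) rfl).commute)

theorem odd_B (hE : IsOfEvenCharacteristic G) (ho : Odd (orderOf g))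
    (hg : g ∈ centralizer (c.K 90 : Set G)) : g = 1 := by
  let N := normalizer (zpowers (c.ψ 36) : Set G)
  have hN : ∀ {y}, Commute y (c.ψ 36) → y ∈ N := fun h =>
    centralizer_le_normalizer _ (mem_centralizer_iff.2 fun _ ⟨k, hk⟩ => hk ▸ (h.zpow_right k).symm)
  have hT : (T : Subgroup G) ≤ N := c.T_le fun n hn => hN ((c.commute hn (by norm_num)).2 (cj_T n hn).1)
  have fB := mem_cent.1 hg
  have hgN : g ∈ N := hN (fB 36 (by norm_num) rfl).commute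
  have hQ := H1.le_normalizer_pCoreOf (p := 2) N
  have hR : ∀ r ∈ pCoreOf 2 N ⊓ centralizer (c.K 90 : Set G),
      g * r * g⁻¹ ∈ pCoreOf 2 N ⊓ centralizer (c.K 90 : Set G) := fun r hr =>
    ⟨(mem_normalizer_iff.1 (hQ hgN) _).1 hr.1, mul_mem (mul_mem hg hr.2) (Subgroup.inv_mem _ hg)⟩
  have := H2.thompson_PxQ (P := c.K 90) (Q := zpowers g) (U := pCoreOf 2 N) c.isP
    (by simpa using ho) (H1.isPGroup_pCoreOf N)
    (le_centralizer_iff.1 (zpowers_le.2 hg)) (c.sub_le.trans (hT.trans hQ)) (zpowers_le.2 (hQ hgN))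
    fun r hr => by
      have hQT := H1.pCoreOf_le_sylow T hT
      obtain ⟨n, hn, rfl⟩ := (c.mem r).1 (hQT hr.1)
      obtain ⟨n1, h1⟩ := c.of hn (hQT (hR _ hr).1)
      have hr1 := h1.eq ▸ hR _ hr
      obtain ⟨n2, h2⟩ := c.of h1.lb (hQT (hR _ hr1).1)
      have hr2 := h2.eq ▸ hR _ hr1
      have a0 := (c.a2_of hn hr.2).1; have a1 := (c.a2_of h1.lb hr1.2).1
      have a2 := (c.a2_of h2.lb hr2.2).1
      have key : ∀ {a b}, c.F g a b → (Mk 90 a ↔ Mk 90 b) := fun h =>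
        ⟨fun e => (fB _ h.la e).uniq h ▸ e, fun e => (fB _ h.lb e).inj h ▸ e⟩
      have t0 := a2_tab n hn a0; have t1 := a2_tab n1 h1.lb a1; have t2 := a2_tab n2 h2.lb a2
      have k1 := key h1; have k2 := key h2; have k3 := key (h1.mul h2.iv)
      have s1 := h1.sq0; have s2 := h2.sq0
      rw [t0.1, t1.1] at k1; rw [t1.1, t2.1] at k2; rw [t0.2.1, t1.2.1] at s1; rw [t1.2.1, t2.2.1] at s2
      rw [(t0.2.2 n1 h1.lb a1).1, (t1.2.2 n2 h2.lb a2).1] at k3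
      obtain ⟨hb, e1, e2⟩ := (t0.2.2 n2 h2.lb a2).2 (by omega)
      have fb := fB _ (m_lt _ _) hb
      have h3 := h1.trans h2
      have h4 := h3.trans ((h3.mul (fb.trans fb)).cast ⟨e1, e2⟩)
      refine le_centralizer_iff.1 (zpowers_le.2 (mem_of_pow (k := 2) ho ?_)) (mem_zpowers _)
      rw [show g ^ 2 ^ 2 = g * g * (g * g) by simp [pow_succ, mul_assoc]]
      exact mem_centralizer_iff.2 fun _ ⟨k, hk⟩ => hk ▸ (h4.commute.zpow_right k).symm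
  have h1 : (⟨g, hgN⟩ : N) ∈ pCore 2 N := hE N ⟨_, c.isP.to_le (zpowers_le.2
    ((mem_sub' (p := Mk 90) (hp := clM _ (by decide)) (by norm_num)).2 rfl)), by simpa using c.ne, rfl⟩
    ⟨T, hT⟩ (mem_centralizer_iff.2 fun q hq => Subtype.ext
      (mem_centralizer_iff.1 (this (mem_zpowers g)) q ⟨q, hq, rfl⟩))
  obtain ⟨k, hk⟩ := H1.isPGroup_pCore (p := 2) ⟨_, h1⟩
  exact mem_bot.1 (mem_of_pow (k := k) ho (mem_bot.2 (congrArg (fun x : pCore 2 N => (x.1.1 : G)) hk)))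

theorem cenB (hE : IsOfEvenCharacteristic G) (hg : g ∈ centralizer (c.K 90 : Set G)) :
    ∃ n < 64, Mk 66 n ∧ c.ψ n = g := by
  have hC : IsPGroup 2 (centralizer (c.K 90 : Set G)) := fun y => by
    obtain ⟨k, r, hr, e⟩ := Nat.exists_eq_two_pow_mul_odd (orderOf_pos (y : G)).ne'
    refine ⟨k, Subtype.ext (c.odd_B hE (hr.of_dvd_nat (orderOf_dvd_of_pow_eq_one ?_)) (y ^ 2 ^ k).2)⟩
    rw [coe_pow, ← pow_mul, ← e, pow_orderOf_eq_one]
  obtain ⟨k, hk, e⟩ := c.overJ (hC.to_sup_of_normal_left' c.isP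
    (H2.le_normalizer_centralizer (J_le_norm 90 (by decide) _))) le_sup_right
  obtain ⟨n, hn, h⟩ := (c.mem _).1 (e g (mem_sup_left hg))
  have hk' := fixB (hk 1 (by norm_num)) (hk 4 (by norm_num)) (hk 32 (by norm_num))
  obtain ⟨h1, h2⟩ := c.a2_of hn (h ▸ mul_mem (mul_mem hk' hg) (inv_mem hk'))
  exact ⟨n, h2, h1, (MulAut.conj k).injective ((hk n h2).eq.trans h)⟩

theorem cenU (hE : IsOfEvenCharacteristic G) (h1 : c.F g 1 1) (h4 : c.F g 4 4) (h16 : c.F g 16 16)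
    (h32 : c.F g 32 32) : ∃ n < 128, Mk 74 n ∧ c.ψ n = g := by
  obtain ⟨n, hn, h, rfl⟩ := c.cenB hE (fixB h1 h4 h32)
  exact ⟨n, by omega, (cj_T n (by omega)).2.2.2.2.2.1 h
    ((c.commute (by omega) h16.la).1 h16.commute), rfl⟩

theorem sq_mem (hg : g ∈ normalizer (c.K 74 : Set G)) (h : g ^ 2 ^ 3 = 1) : g * g ∈ c.K 74 := by
  set N := normalizer (c.K 74 : Set G)
  have hJ : c.J ≤ N := J_le_norm 74 (by decide) _
  obtain ⟨S, hS⟩ := (c.isP.comap_subtype (K := N)).exists_le_sylow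
  obtain ⟨k, hk, e⟩ := c.overJ (S.isPGroup'.map N.subtype)
    ((map_subgroupOf_eq_of_le hJ).ge.trans (map_mono hS))
  obtain ⟨t, ht, h⟩ := H3.exists_conj_le_of_isPGroup_of_not_dvd_relIndex (p := 2) (P := zpowers g)
    (K := (S : Subgroup N).map N.subtype) (isP_zpowers h) (zpowers_le.2 hg) (by
      rw [relIndex, subgroupOf, comap_map_eq_self_of_injective N.subtype_injective]
      exact S.not_dvd_index)
  obtain ⟨n, hn, e⟩ := (c.mem _).1 (e _ (h (H1.conj_mem_conj_smul (mem_zpowers g))))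
  have hkt : k * t ∈ N := mul_mem (mem_norm fun n hn h => ⟨n, h, hk n (by
    revert n; decide +kernel)⟩) ht
  replace e : c.ψ n = k * t * g * (k * t)⁻¹ := by rw [e]; group
  have hn' : c.ψ n ∈ N := e ▸ mul_mem (mul_mem hkt hg) (inv_mem hkt)
  obtain ⟨b, hb, f⟩ := of_norm (a := 1) hn' (by norm_num) rfl
  have h64 := (cj_T n hn).2.2.1 (f.uniq (.cj hn f.la) ▸ hb)
  refine (mem_normalizer_iff.1 hkt _).2 ?_
  rw [show k * t * (g * g) * (k * t)⁻¹ = c.ψ (m n n) by rw [c.mul n hn n hn, e]; group]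
  exact (mem_sub' (m_lt _ _)).2 ((cj_T n hn).2.2.2.1 h64).2

end Cfg

end H90.Wr
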